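import Cfsg.Agent.Lib.Char.Integral
import Cfsg.Agent.Lib.Ind.IndRep
import Cfsg.Agent.Lib.Ind.TI
import Cfsg.Agent.Lib.Solv.FrobCard

/-!
Frobenius' theorem on the kernel of a Frobenius group.
-/

set_option autoImplicit false

open Module
open scoped ComplexConjugate Pointwise

namespace Cfsg.Agent.Char

variable {G : Type*} [Group G]

/-- Every irreducible character of a subgroup meeting its other conjugates trivially extends to
an irreducible character of the group that is constant on the Frobenius kernel. -/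
theorem exists_isIrr_extend_of_ti [Finite G] {H : Subgroup G}
    (hH : ∀ g : G, g ∉ H → H ⊓ (MulAut.conj g • H) = ⊥) {θ : H → ℂ} (hθ : IsIrrCharacter H θ) :
    ∃ χ : G → ℂ, IsIrrCharacter G χ ∧ (∀ h : H, χ h = θ h) ∧
      ∀ x ∈ frobeniusKernel H, χ x = χ 1 := by
  have := Fintype.ofFinite G
  have := Fintype.ofFinite H
  obtain ⟨d, hd0, hd⟩ := exists_pos_nat_of_isIrr hθ
  set φ : H → ℂ := θ - (d : ℂ) • fun _ => 1 with hφ
  have hφgen : IsGeneralizedCharacter H φ :=
    isGen_sub (isGen_of_isIrr hθ) (isGen_natCast_smul d isGen_one)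
  have hφ1 : φ 1 = 0 := by simp [hφ, hd]
  have hres : ∀ h : H, indFun H φ h = φ h := by
    intro h
    by_cases h1 : h = 1
    · subst h1
      rw [OneMemClass.coe_one, Ind.indFun_one, hφ1, mul_zero]
    · refine Ind.indFun_eq_self_of_ti H H φ (isClass_of_isGen hφgen)
        (fun x hx => absurd x.2 hx) h (fun g hg => ?_)
      have := Solv.mem_of_frobenius hH (g := g⁻¹) h.2 (fun h2 => h1 (Subtype.ext h2))
        (by simpa using hg)
      simpa using this
  set χ : G → ℂ := indFun H φ + (d : ℂ) • fun _ => 1 with hχ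
  have hχgen : IsGeneralizedCharacter G χ :=
    isGen_add (Ind.isGen_indFun H hφgen) (isGen_natCast_smul d isGen_one)
  have hχres : ∀ h : H, χ h = θ h := by
    intro h
    rw [hχ, Pi.add_apply, hres, hφ]
    simp
  have hχ1 : χ 1 = d := by rw [← hd, ← hχres 1]; rfl
  refine ⟨χ, isIrr_of_isGen_of_inner_self hχgen ?_ (by rw [hχ1]; simp), hχres, ?_⟩
  · have h1 : classInner χ χ = classInner φ θ + d * classInner (fun _ => 1) χ := by
      conv_lhs => rw [hχ, inner_add_left, ← hχ]
      rw [inner_smul_left, Ind.frobenius H φ (isClass_of_isGen hχgen)]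
      simp only [hχres]
    have h2 : classInner χ (fun _ => 1) = classInner θ (fun _ => 1) := by
      rw [hχ, inner_add_left, inner_smul_left, Ind.frobenius H φ (isClass_const 1), hφ,
        inner_sub_left, inner_smul_left, inner_one_one, inner_one_one]
      ring
    rw [h1, ← conj_inner χ, h2, conj_inner, hφ, inner_sub_left, inner_smul_left,
      inner_self_of_isIrr hθ]
    ring
  · intro x hx
    rcases hx with rfl | hx
    · rfl
    · have h1 : indFun H φ x = 0 := Ind.indFun_eq_zero H φ fun y hy => hx y (by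
        rw [Subgroup.mem_pointwise_smul_iff_inv_smul_mem]
        simpa using hy)
      rw [hχ1]; simp [hχ, h1]

/-- Frobenius' theorem. -/
theorem exists_frobeniusKernel [Finite G] {H : Subgroup G}
    (hH : ∀ g : G, g ∉ H → H ⊓ (MulAut.conj g • H) = ⊥) :
    ∃ N : Subgroup G, (N : Set G) = frobeniusKernel H ∧ N.Normal ∧ Subgroup.IsComplement' N H := by
  choose χ hχ h1 h2 using fun θ : IrrCharacter H => exists_isIrr_extend_of_ti hH θ.2
  let N : Subgroup G := ⨅ θ, charKer (isChar_of_isIrr (hχ θ))
  have hN : (N : Set G) = frobeniusKernel H := by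
    ext x
    simp only [N, SetLike.mem_coe, Subgroup.mem_iInf, mem_charKer]
    refine ⟨fun hx => ?_, fun hx θ => h2 θ x hx⟩
    by_contra hx'
    simp only [frobeniusKernel, Set.mem_ofPred_eq, not_or, not_forall, not_not] at hx'
    obtain ⟨hx1, g, hg⟩ := hx'
    rw [Subgroup.mem_pointwise_smul_iff_inv_smul_mem] at hg
    have hg' : g⁻¹ * x * g ∈ H := by simpa using hg
    have h3 : (⟨_, hg'⟩ : H) = 1 := eq_one_of_forall_irr fun θ => by
      rw [← h1, ← h1]
      exact (isClass_conj' (isClass_of_isIrr (hχ θ)) x g).trans (hx θ)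
    have h4 : g⁻¹ * x * g = 1 := congrArg Subtype.val h3
    exact hx1 (by simpa [mul_assoc, inv_mul_eq_one] using (by
      have := congrArg (fun y => g * y * g⁻¹) h4
      simpa [mul_assoc] using this : x = 1))
  refine ⟨N, hN, Subgroup.normal_iInf_normal fun θ => charKer_normal _, ?_⟩
  refine Subgroup.isComplement'_of_card_mul_and_disjoint ?_ ?_
  · have : Nat.card N = H.index := by
      rw [← Solv.card_frobeniusKernel hH, ← hN]; rfl
    rw [this, mul_comm, H.card_mul_index]
  · rw [Subgroup.disjoint_def]
    intro x hx hxH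
    have : x ∈ frobeniusKernel H := hN ▸ hx
    rcases this with h | h
    · exact h
    · exact absurd (by simpa using hxH) (h 1)

end Cfsg.Agent.Char
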