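import Cfsg.Agent.Lib.Char.Integral
import Cfsg.Agent.Lib.Solv.Hall2

/-!
Converse of Hall's theorem, and solvability of groups with a Sylow system.
-/

set_option autoImplicit false

open scoped Pointwise

namespace Cfsg.Agent.Char

universe u in
theorem isSolvable_of_complements_aux (n : ℕ) :
    ∀ (G : Type u) [Group G] [Finite G], Nat.card G = n →
      (∀ p : ℕ, p.Prime → ∃ H : Subgroup G, (∃ k, H.index = p ^ k) ∧ ¬ p ∣ Nat.card H) →
      Group.IsSolvable G := by
  induction n using Nat.strong_induction_on with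
  | _ n ih =>
    intro G _ _ hn h
    choose! H hH hH' using h
    have hcop : ∀ p q : ℕ, p.Prime → q.Prime → p ≠ q → (H p).index.Coprime (H q).index := by
      intro p q hp hq hpq
      obtain ⟨a, ha⟩ := hH p hp
      obtain ⟨b, hb⟩ := hH q hq
      rw [ha, hb]
      exact Nat.coprime_pow_primes a b hp hq hpq
    have hcop' : ∀ p q : ℕ, p.Prime → q.Prime → p ≠ q →
        ((H p).relIndex ⊤).Coprime ((H q).relIndex ⊤) := by
      intro p q hp hq hpq
      simpa using hcop p q hp hq hpq
    have hsolv : ∀ p : ℕ, p.Prime → p ∣ Nat.card G → Group.IsSolvable (H p) := by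
      intro p hp hpG
      have hne : H p ≠ ⊤ := by
        intro h1
        apply hH' p hp
        rwa [h1, Subgroup.card_top]
      refine ih _ (hn ▸ Solv.card_lt_of_ne_top hne) (H p) rfl fun q hq => ?_
      by_cases hpq : p = q
      · subst hpq
        exact ⟨⊤, ⟨0, by simp⟩, by rw [Subgroup.card_top]; exact hH' p hp⟩
      · refine ⟨(H q).subgroupOf (H p), ?_, fun h1 => hH' q hq (h1.trans ?_)⟩
        · obtain ⟨b, hb⟩ := hH q hq
          refine ⟨b, ?_⟩
          have := Solv.relIndex_eq_of_coprime le_top (hcop' p q hp hq hpq)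
          rw [Subgroup.relIndex_top_right, hb] at this
          exact this
        · exact Subgroup.card_dvd_of_injective
            (((H p).subtype.comp ((H q).subgroupOf (H p)).subtype).codRestrict (H q) fun x => x.2)
            (fun x y hxy => Subtype.ext (Subtype.ext (congrArg (fun z : H q => (z : G)) hxy)))
    by_cases h3 : ∃ p q r : ℕ, p.Prime ∧ q.Prime ∧ r.Prime ∧ p ∣ Nat.card G ∧ q ∣ Nat.card G ∧
        r ∣ Nat.card G ∧ p ≠ q ∧ p ≠ r ∧ q ≠ r
    · obtain ⟨p, q, r, hp, hq, hr, hpG, hqG, hrG, hpq, hpr, hqr⟩ := h3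
      exact Solv.three_solvable_aux _ G rfl (H p) (H q) (H r) (hsolv p hp hpG) (hsolv q hq hqG)
        (hsolv r hr hrG)
        (fun g => Solv.exists_mul_of_coprime le_top (hcop' p q hp hq hpq) g trivial)
        (fun g => Solv.exists_mul_of_coprime le_top (hcop' p r hp hr hpr) g trivial)
        (hcop q r hq hr hqr)
    · obtain ⟨p, q, hp, hq, hpq⟩ : ∃ p q : ℕ, p.Prime ∧ q.Prime ∧
          ∀ r : ℕ, r.Prime → r ∣ Nat.card G → r = p ∨ r = q := by
        by_contra h4
        push Not at h4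
        obtain ⟨p, hp, hpG, -, -⟩ := h4 2 2 Nat.prime_two Nat.prime_two
        obtain ⟨q, hq, hqG, hqp, -⟩ := h4 p p hp hp
        obtain ⟨r, hr, hrG, hrp, hrq⟩ := h4 p q hp hq
        exact h3 ⟨p, q, r, hp, hq, hr, hpG, hqG, hrG, hqp.symm, hrp.symm, hrq.symm⟩
      obtain ⟨a, ha⟩ := hH p hp
      have h5 : Nat.card (H p) = q ^ (Nat.card (H p)).primeFactorsList.length :=
        Nat.eq_prime_pow_of_unique_prime_dvd Nat.card_pos.ne' fun {r} hr hrH =>
          (hpq r hr (hrH.trans (Subgroup.card_subgroup_dvd_card _))).resolve_left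
            fun h => hH' p hp (h ▸ hrH)
      refine burnside (a := a) (b := (Nat.card (H p)).primeFactorsList.length) hp hq ?_
      rw [← h5, ← ha, mul_comm, (H p).card_mul_index]

variable {G : Type*} [Group G]

/-- Converse of Hall's theorem. -/
theorem isSolvable_of_complements [Finite G]
    (h : ∀ p : ℕ, p.Prime → ∃ H : Subgroup G, (∃ k, H.index = p ^ k) ∧ ¬ p ∣ Nat.card H) :
    Group.IsSolvable G :=
  isSolvable_of_complements_aux _ G rfl h

theorem coe_sup_of_mul_comm {A B : Subgroup G} (h : (A : Set G) * B = (B : Set G) * A) :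
    ((A ⊔ B : Subgroup G) : Set G) = (A : Set G) * B := by
  let C : Subgroup G :=
    { carrier := (A : Set G) * B
      mul_mem' := by
        rintro _ _ ⟨a, ha, b, hb, rfl⟩ ⟨a', ha', b', hb', rfl⟩
        have h1 : b * a' ∈ (A : Set G) * B := h ▸ Set.mul_mem_mul hb ha'
        obtain ⟨a'', ha'', b'', hb'', h2⟩ := h1
        refine ⟨a * a'', A.mul_mem ha ha'', b'' * b', B.mul_mem hb'' hb', ?_⟩
        have h3 : a'' * b'' = b * a' := h2
        show a * a'' * (b'' * b') = a * b * (a' * b')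
        calc a * a'' * (b'' * b') = a * (a'' * b'') * b' := by group
          _ = a * b * (a' * b') := by rw [h3]; group
      one_mem' := ⟨1, A.one_mem, 1, B.one_mem, mul_one 1⟩
      inv_mem' := by
        rintro _ ⟨a, ha, b, hb, rfl⟩
        show (a * b)⁻¹ ∈ (A : Set G) * B
        rw [h, mul_inv_rev]
        exact Set.mul_mem_mul (B.inv_mem hb) (A.inv_mem ha) }
  apply Set.Subset.antisymm
  · have : A ⊔ B ≤ C := sup_le (fun a ha => ⟨a, ha, 1, B.one_mem, mul_one a⟩)
      (fun b hb => ⟨1, A.one_mem, b, hb, one_mul b⟩)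
    exact this
  · rintro _ ⟨a, ha, b, hb, rfl⟩
    exact Subgroup.mul_mem_sup ha hb

theorem card_sup_dvd_of_mul_comm [Finite G] {A B : Subgroup G}
    (h : (A : Set G) * B = (B : Set G) * A) :
    Nat.card (A ⊔ B : Subgroup G) ∣ Nat.card A * Nat.card B := by
  have h1 := (Solv.forall_mul_iff_relIndex_eq (H := A) (K := B) (L := A ⊔ B) le_sup_left).1
    (fun g hg => by
      have : g ∈ ((A ⊔ B : Subgroup G) : Set G) := hg
      rw [coe_sup_of_mul_comm h] at this
      obtain ⟨a, ha, b, hb, rfl⟩ := this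
      exact ⟨a, ha, b, hb, rfl⟩)
  rw [← Solv.card_mul_relIndex (le_sup_right : B ≤ A ⊔ B), ← h1, mul_comm]
  exact Nat.mul_dvd_mul_right (Subgroup.relIndex_dvd_card B A) _

theorem isSolvable_of_sylow_system [Finite G] (S : (p : Nat.Primes) → Sylow (p : ℕ) G)
    (hS : ∀ p q : Nat.Primes, (S p : Set G) * (S q : Set G) = (S q : Set G) * (S p : Set G)) :
    Group.IsSolvable G := by
  classical
  have key : ∀ T : Finset Nat.Primes, ∃ J : Subgroup G,
      (∀ q ∈ T, (S q : Subgroup G) ≤ J) ∧
      (∀ r, ((S r : Subgroup G) : Set G) * J = (J : Set G) * (S r : Subgroup G)) ∧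
      ∀ p : Nat.Primes, p ∉ T → ¬ (p : ℕ) ∣ Nat.card J := by
    intro T
    induction T using Finset.induction_on with
    | empty => exact ⟨⊥, by simp, fun r => by simp, fun p _ => by simpa using p.2.ne_one⟩
    | insert q T hq ih =>
      obtain ⟨J, h1, h2, h3⟩ := ih
      refine ⟨(S q : Subgroup G) ⊔ J, fun r hr => ?_, fun r => ?_, fun p hp hd => ?_⟩
      · rcases Finset.mem_insert.1 hr with rfl | hr
        · exact le_sup_left
        · exact (h1 r hr).trans le_sup_right
      · have h4 : ((S r : Subgroup G) : Set G) * (S q : Subgroup G) =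
            ((S q : Subgroup G) : Set G) * (S r : Subgroup G) := hS r q
        rw [coe_sup_of_mul_comm (h2 q), ← mul_assoc, h4, mul_assoc, h2 r, mul_assoc]
      · rw [Finset.mem_insert, not_or] at hp
        rcases (Nat.Prime.dvd_mul p.2).1 (hd.trans (card_sup_dvd_of_mul_comm (h2 q))) with h | h
        · have : Fact (q : ℕ).Prime := ⟨q.2⟩
          exact hp.1 (Subtype.ext (Solv.eq_of_prime_dvd_card_pgroup p.2 (S q).isPGroup' h))
        · exact h3 p hp.2 h
  refine isSolvable_of_complements fun p hp => ?_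
  obtain ⟨J, h1, -, h3⟩ := key
    (((Nat.card G).primeFactors.erase p).subtype Nat.Prime)
  refine ⟨J, ⟨_, Nat.eq_prime_pow_of_unique_prime_dvd Subgroup.index_ne_zero_of_finite
    fun {r} hr hrJ => ?_⟩, h3 ⟨p, hp⟩ fun h => (Finset.mem_erase.1 (Finset.mem_subtype.1 h)).1 rfl⟩
  by_contra hne
  have : Fact r.Prime := ⟨hr⟩
  have h4 := h1 ⟨r, hr⟩ (Finset.mem_subtype.2 (Finset.mem_erase.2 ⟨hne, Nat.mem_primeFactors.2
    ⟨hr, hrJ.trans (Subgroup.index_dvd_card J), Nat.card_pos.ne'⟩⟩))
  exact (S ⟨r, hr⟩).not_dvd_index (hrJ.trans (Subgroup.index_dvd_of_le h4))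

end Cfsg.Agent.Char
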